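import Mathlib
import Cfsg.Agent.Dk.DihRows

/-! The minimal index of a proper subgroup of `PSL₂(q)`. -/

set_option autoImplicit false

namespace Cfsg.Agent.Dk

open MulAction Matrix LinearAlgebra.Projectivization Projectivization Subgroup
open scoped MatrixGroups
open H81 (pt0 pt1 ptz ptc)

variable {F : Type*} [Field F] [Finite F]

attribute [local instance 10] sact

theorem orbit_ge (K : Type*) [Field K] [Algebra F K] {p : ℕ} [CharP K p] [IsAlgClosed K]
    [Fact p.Prime] (h4 : 4 ≤ Nat.card F) (z : ℙ K (Fin 2 → K)) :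
    Nat.card F + 1 ≤ Nat.card (orbit PSL(2, F) z) := by
  have hfin : Finite PSL(2, F) := finite_psl
  have hF := fullS (p := p) (F := F) (K := K)
  obtain ⟨x, h1, h2, h3, h4', h5, h6⟩ := hF.exists_irr
  by_cases hz : z ∈ Om PSL(2, F) (ℙ K (Fin 2 → K))
  · rcases h3 z hz with h | h
    · rw [MulAction.orbit_eq_iff.2 h, hF.hN, card_US_pt0]
    · rw [MulAction.orbit_eq_iff.2 h, h5, card_US_pt0]
      obtain ⟨a, ha⟩ : ∃ a, Nat.card F = a + 4 := ⟨Nat.card F - 4, by omega⟩
      have : a + 4 - 1 = a + 3 := by omega
      rw [ha, this]; nlinarith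
  · have h7 : stabilizer PSL(2, F) z = ⊥ := by
      by_contra h; exact hz h
    have h8 := card_orbit_mul (Γ := PSL(2, F)) z
    rw [h7, Subgroup.card_bot, mul_one] at h8
    rw [h8]
    have h9 := card_orbit_mul (Γ := PSL(2, F)) (pt0 K)
    rw [hF.hN, card_US_pt0] at h9
    rw [← h9]
    exact Nat.le_mul_of_pos_right _ Nat.card_pos

theorem min_index (h2 : Nat.card F ≠ 2) (h3 : Nat.card F ≠ 3) (h5 : Nat.card F ≠ 5)
    (h7 : Nat.card F ≠ 7) (h9 : Nat.card F ≠ 9) (h11 : Nat.card F ≠ 11) :
    (∀ H : Subgroup PSL(2, F), H ≠ ⊤ → Nat.card F + 1 ≤ H.index) ∧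
      ∃ H : Subgroup PSL(2, F), H.index = Nat.card F + 1 := by
  obtain ⟨p, hp, hc⟩ := exists_char (F := F)
  have : Fact p.Prime := ⟨hp⟩
  have : CharP (AlgebraicClosure F) p :=
    charP_of_injective_algebraMap (algebraMap F (AlgebraicClosure F)).injective p
  have hfin : Finite PSL(2, F) := finite_psl
  have hq := Finite.one_lt_card (α := F)
  have hF := fullS (p := p) (F := F) (K := AlgebraicClosure F)
  constructor
  swap
  · refine ⟨stabilizer PSL(2, F) (pt0 (AlgebraicClosure F)), ?_⟩
    have h1 := card_orbit_mul (Γ := PSL(2, F)) (pt0 (AlgebraicClosure F))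
    have h2 := Subgroup.card_mul_index (stabilizer PSL(2, F) (pt0 (AlgebraicClosure F)))
    rw [hF.hN, card_US_pt0] at h1
    rw [← h1, mul_comm] at h2
    exact Nat.eq_of_mul_eq_mul_right Nat.card_pos h2
  · intro H hH
    have hq4 : 4 ≤ Nat.card F := by omega
    have hcard := card_psl (F := F)
    have hHc := Subgroup.card_mul_index H
    have hpos : 0 < Nat.card H := Nat.card_pos
    -- reduction to orders
    have hred : Nat.gcd 2 (Nat.card F - 1) * Nat.card H ≤ Nat.card F * (Nat.card F - 1) →
        Nat.card F + 1 ≤ H.index := by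
      intro h
      by_contra hcon
      push Not at hcon
      have e1 : Nat.gcd 2 (Nat.card F - 1) * Nat.card H * H.index =
          Nat.card F * (Nat.card F - 1) * (Nat.card F + 1) := by
        rw [mul_assoc, hHc, hcard]; ring
      have e2 : Nat.gcd 2 (Nat.card F - 1) * Nat.card H * H.index ≤
          Nat.card F * (Nat.card F - 1) * H.index := Nat.mul_le_mul_right _ h
      have e3 : Nat.card F * (Nat.card F - 1) * H.index <
          Nat.card F * (Nat.card F - 1) * (Nat.card F + 1) := by
        apply Nat.mul_lt_mul_of_pos_left hcon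
        have : 0 < Nat.card F - 1 := by omega
        positivity
      omega
    by_cases hbot : H = ⊥
    · apply hred
      rw [hbot, Subgroup.card_bot, mul_one]
      have : Nat.gcd 2 (Nat.card F - 1) ≤ 2 := Nat.le_of_dvd (by norm_num) (Nat.gcd_dvd_left _ _)
      have h10 : 3 ≤ Nat.card F - 1 := by omega
      nlinarith
    have hodd : ¬ p ∣ 2 → 13 ≤ Nat.card F ∧ Nat.gcd 2 (Nat.card F - 1) = 2 := by
      intro h
      rcases Nat.even_or_odd (Nat.card F) with he | ho
      · exact absurd (by rw [char_two_of_even hp he]) h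
      · refine ⟨?_, gcd_odd ho⟩
        obtain ⟨k, hk⟩ := ho; omega
    rcases (ambS (F := F) (K := AlgebraicClosure F)).list (p := p) hbot with
      ⟨z, hz⟩ | ⟨z, hz1, hz2⟩ | ⟨h1, h2, -⟩ | ⟨h1, h2, -⟩ | ⟨h1, h2, -⟩ |
      ⟨z, hz, hz3, g, K1, -, hcj, -, hK1⟩
    · have h10 := orbit_ge (F := F) (AlgebraicClosure F) (p := p) hq4 z
      have h12 : H ≤ stabilizer PSL(2, F) z := fun h hh => hz h hh
      have h13 := Nat.le_of_dvd (Nat.pos_of_ne_zero Subgroup.index_ne_zero_of_finite)
        (Subgroup.index_dvd_of_le h12)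
      have h14 : (stabilizer PSL(2, F) z).index = Nat.card (orbit PSL(2, F) z) := by
        have e1 := card_orbit_mul (Γ := PSL(2, F)) z
        have e2 := Subgroup.card_mul_index (stabilizer PSL(2, F) z)
        rw [← e1, mul_comm] at e2
        exact Nat.eq_of_mul_eq_mul_right Nat.card_pos e2
      omega
    · apply hred
      have M := (ambS (F := F) (K := AlgebraicClosure F)).mob (p := p)
      have h10 := (M.subgroup H).not_dvd_stab hz1
      have h12 := card_orbit_mul (Γ := H) z
      rw [hz2] at h12
      have h13 : Nat.card (stabilizer H z) = Nat.card ((stabilizer H z).map H.subtype) :=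
        Nat.card_congr ((stabilizer H z).equivMapOfInjective _ H.subtype_injective).toEquiv
      rw [h13] at h10 h12
      have h14 := card_dvd_psl (F := F) (K := AlgebraicClosure F) (p := p)
        (C := (stabilizer H z).map H.subtype) (z := z) (by
          rintro _ ⟨c, hc, rfl⟩
          exact hc) h10
      have hd : 0 < Nat.gcd 2 (Nat.card F - 1) := Nat.gcd_pos_of_pos_left _ (by norm_num)
      set C := Nat.card ((stabilizer H z).map H.subtype) with hC
      set d := Nat.gcd 2 (Nat.card F - 1) with hdd
      have h15 : d * C ≤ Nat.card F + 1 := by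
        rcases h14 with h | h
        · have h16 : 0 < (Nat.card F - 1) / d := by
            apply Nat.div_pos _ hd
            have : d ≤ 2 := Nat.le_of_dvd (by norm_num) (Nat.gcd_dvd_left _ _)
            omega
          have h17 := Nat.le_of_dvd h16 h
          have h18 := Nat.mul_div_le (Nat.card F - 1) d
          have : d * C ≤ d * ((Nat.card F - 1) / d) := Nat.mul_le_mul_left _ h17
          omega
        · have h16 : 0 < (Nat.card F + 1) / d := by
            apply Nat.div_pos _ hd
            have : d ≤ 2 := Nat.le_of_dvd (by norm_num) (Nat.gcd_dvd_left _ _)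
            omega
          have h17 := Nat.le_of_dvd h16 h
          have h18 := Nat.mul_div_le (Nat.card F + 1) d
          have : d * C ≤ d * ((Nat.card F + 1) / d) := Nat.mul_le_mul_left _ h17
          omega
      rw [← h12]
      have h19 : 3 ≤ Nat.card F - 1 := by omega
      have h20 : Nat.card F * 3 ≤ Nat.card F * (Nat.card F - 1) := Nat.mul_le_mul_left _ h19
      have : d * (2 * C) = 2 * (d * C) := by ring
      omega
    · apply hred
      obtain ⟨h13, hd⟩ := hodd (fun h => h1 (h.trans (by norm_num)))
      rw [hd, h2]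
      have : 13 * 12 ≤ Nat.card F * (Nat.card F - 1) := Nat.mul_le_mul h13 (by omega)
      omega
    · apply hred
      obtain ⟨h13, hd⟩ := hodd (fun h => h1 (h.trans (by norm_num)))
      rw [hd, h2]
      have : 13 * 12 ≤ Nat.card F * (Nat.card F - 1) := Nat.mul_le_mul h13 (by omega)
      omega
    · apply hred
      obtain ⟨h13, hd⟩ := hodd (fun h => by
        rcases h1 with h1 | h1
        · exact h1 (h.trans (by norm_num))
        · rw [h1] at h; norm_num at h)
      rw [hd, h2]
      have : 13 * 12 ≤ Nat.card F * (Nat.card F - 1) := Nat.mul_le_mul h13 (by omega)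
      omega
    · rcases top_or_sq K1 with h4 | h4
      · exfalso
        rw [h4] at hcj
        exact hH (eq_top_of_im (PSLr_le_of_cj hcj))
      · apply hred
        have h10 : Nat.card H ≤ Nat.card K1 * ((Nat.card K1 - 1) * (Nat.card K1 + 1)) := by
          have e1 : Nat.card H = Nat.card (cj g (H.map (toP F))) := by
            rw [card_cj]
            exact Nat.card_congr (imEquiv H).toEquiv
          rw [e1, ← card_PGLs]
          rcases hcj with h | h
          · rw [h]
          · rw [h]
            exact Nat.card_le_card_of_injective _ (Subgroup.inclusion_injective (PSLs_le_PGLs K1))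
        have hd : Nat.gcd 2 (Nat.card F - 1) ≤ 2 := Nat.le_of_dvd (by norm_num) (Nat.gcd_dvd_left _ _)
        have h12 : Nat.gcd 2 (Nat.card F - 1) * Nat.card H ≤
            2 * (Nat.card K1 * ((Nat.card K1 - 1) * (Nat.card K1 + 1))) := Nat.mul_le_mul hd h10
        refine h12.trans ?_
        rw [← hK1] at hz3
        obtain ⟨a, ha⟩ : ∃ a, Nat.card K1 = a + 3 := ⟨Nat.card K1 - 3, by omega⟩
        rw [ha] at h4 ⊢
        have e1 : a + 3 - 1 = a + 2 := by omega
        rw [e1]
        have h14 : (a + 3) ^ 2 * ((a + 3) ^ 2 - 1) ≤ Nat.card F * (Nat.card F - 1) :=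
          Nat.mul_le_mul h4 (Nat.sub_le_sub_right h4 1)
        refine le_trans ?_ h14
        have e2 : (a + 3) ^ 2 - 1 = (a + 2) * (a + 4) := by
          have : (a + 3) ^ 2 = (a + 2) * (a + 4) + 1 := by ring
          omega
        rw [e2]
        have e3 : (a + 3) ^ 2 * ((a + 2) * (a + 4)) = (a + 3) * ((a + 3) * ((a + 2) * (a + 3 + 1))) := by
          ring
        rw [e3]
        have e4 : 2 * ((a + 3) * ((a + 2) * (a + 3 + 1))) ≤
            (a + 3) * ((a + 3) * ((a + 2) * (a + 3 + 1))) := Nat.mul_le_mul_right _ (by omega)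
        exact e4

end Cfsg.Agent.Dk
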