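import Mathlib
import Cfsg.Agent.ClGeo.Symp

/-! Totally isotropic lines of the symplectic space of dimension four. -/

set_option autoImplicit false

namespace Cfsg.Agent.Dk.SpL

open Module
open ClGeo

section cnt

theorem card_pairs {A B : Type*} [Finite A] [Finite B] (R : A → B → Prop) {k : ℕ}
    (h : ∀ a, Nat.card {b // R a b} = k) :
    Nat.card {p : A × B // R p.1 p.2} = Nat.card A * k := by
  classical
  have := Fintype.ofFinite A
  let e : {p : A × B // R p.1 p.2} ≃ Σ a : A, {b : B // R a b} :=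
    { toFun := fun p => ⟨p.1.1, p.1.2, p.2⟩
      invFun := fun x => ⟨(x.1, x.2.1), x.2.2⟩
      left_inv := fun _ => rfl
      right_inv := fun _ => rfl }
  rw [Nat.card_congr e, Nat.card_sigma, Finset.sum_congr rfl (fun a _ => h a)]
  simp [Nat.card_eq_fintype_card]

theorem double {A B : Type*} [Finite A] [Finite B] (R : A → B → Prop) {k l : ℕ}
    (h1 : ∀ a, Nat.card {b // R a b} = k) (h2 : ∀ b, Nat.card {a // R a b} = l) :
    Nat.card A * k = Nat.card B * l := by
  rw [← card_pairs R h1, ← card_pairs (fun b a => R a b) h2]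
  exact Nat.card_congr
    { toFun := fun p => ⟨(p.1.2, p.1.1), p.2⟩
      invFun := fun p => ⟨(p.1.2, p.1.1), p.2⟩
      left_inv := fun _ => rfl
      right_inv := fun _ => rfl }

end cnt

variable {F : Type*} [Field F] [Fintype F]

/-- vectors -/
abbrev V (F : Type*) := Fin 2 ⊕ Fin 2 → F

theorem card_sub (W : Submodule F (V F)) {k : ℕ} (h : finrank F W = k) :
    Nat.card W = Fintype.card F ^ k := by
  have := Fintype.ofFinite W
  rw [Nat.card_eq_fintype_card, Module.card_eq_pow_finrank (K := F), h]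

theorem card_diff {W U : Submodule F (V F)} (hUW : U ≤ W) {k l : ℕ} (h : finrank F W = k)
    (h' : finrank F U = l) :
    Nat.card {w : V F // w ∈ W ∧ w ∉ U} = Fintype.card F ^ k - Fintype.card F ^ l := by
  rw [← card_sub W h, ← card_sub U h']
  have h1 : Nat.card {w : V F // w ∈ W ∧ w ∉ U} = ((W : Set (V F)) \ (U : Set (V F))).ncard :=
    (Nat.card_coe_set_eq _)
  rw [h1, Set.ncard_sdiff (show (U : Set (V F)) ⊆ W from hUW), ← Nat.card_coe_set_eq,
    ← Nat.card_coe_set_eq]
  rfl

/-- lines through a point -/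
theorem lines_through {q : ℕ} (hF : Fintype.card F = q) {v : V F} (hv : v ≠ 0) :
    Nat.card {W : Submodule F (V F) // finrank F W = 2 ∧ v ∈ W ∧
      ∀ u ∈ W, ∀ w ∈ W, Cfsg.sympForm 2 F u w = 0} = q + 1 := by
  have hq : 1 < q := by rw [← hF]; exact Fintype.one_lt_card
  set P : Submodule F (V F) := LinearMap.ker (sB F 2 v) with hP
  have hmemP : ∀ w, w ∈ P ↔ Cfsg.sympForm 2 F v w = 0 := by
    intro w; rw [hP, LinearMap.mem_ker, sB_apply]
  have hV : finrank F (V F) = 4 := by simp [V]
  have hPd : finrank F P = 3 := by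
    have h1 := LinearMap.finrank_range_add_finrank_ker (sB F 2 v)
    have h2 : LinearMap.range (sB F 2 v) = ⊤ := by
      apply LinearMap.range_eq_top.2
      apply LinearMap.surjective
      intro h
      apply hv
      apply sympForm_nondeg_left 2 v
      intro w
      rw [← sB_apply, h, LinearMap.zero_apply]
    rw [h2, finrank_top, hV, ← hP] at h1
    rw [Module.finrank_self] at h1
    have h4 : 1 + finrank F P = 4 := h1
    omega
  have hsd : finrank F (Submodule.span F {v}) = 1 := finrank_span_singleton hv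
  have hvP : Submodule.span F {v} ≤ P := by
    rw [Submodule.span_singleton_le_iff_mem, hmemP, sympForm_self]
  have key := double (A := {W : Submodule F (V F) // finrank F W = 2 ∧ v ∈ W ∧
      ∀ u ∈ W, ∀ w ∈ W, Cfsg.sympForm 2 F u w = 0})
    (B := {w : V F // w ∈ P ∧ w ∉ Submodule.span F {v}}) (fun W w => w.1 ∈ W.1)
    (k := q ^ 2 - q ^ 1) (l := 1) ?_ ?_
  · rw [card_diff hvP hPd hsd, hF] at key
    obtain ⟨r, rfl⟩ : ∃ r, q = r + 2 := ⟨q - 2, by omega⟩
    have e1 : (r + 2) ^ 2 - (r + 2) ^ 1 = (r + 2) * (r + 1) := by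
      have : (r + 2) ^ 2 = (r + 2) * (r + 1) + (r + 2) ^ 1 := by ring
      omega
    have e2 : (r + 2) ^ 3 - (r + 2) ^ 1 = (r + 3) * ((r + 2) * (r + 1)) := by
      have : (r + 2) ^ 3 = (r + 3) * ((r + 2) * (r + 1)) + (r + 2) ^ 1 := by ring
      omega
    rw [e1, e2, mul_one] at key
    exact Nat.eq_of_mul_eq_mul_right (by positivity) key
  · rintro ⟨W, hW2, hvW, hW⟩
    have hvW' : Submodule.span F {v} ≤ W := by rwa [Submodule.span_singleton_le_iff_mem]
    rw [← hF, ← card_diff hvW' hW2 hsd]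
    exact Nat.card_congr
      { toFun := fun w => ⟨w.1.1, w.2, w.1.2.2⟩
        invFun := fun w => ⟨⟨w.1, (hmemP _).2 (hW v hvW w.1 w.2.1), w.2.2⟩, w.2.1⟩
        left_inv := fun _ => rfl
        right_inv := fun _ => rfl }
  · rintro ⟨w, hwP, hwv⟩
    rw [hmemP] at hwP
    have hind : finrank F (Submodule.span F {v, w}) = 2 := by
      have h1 : LinearIndependent F ![v, w] := by
        rw [LinearIndependent.pair_iff' hv]
        intro a ha
        apply hwv
        rw [← ha]
        exact Submodule.smul_mem _ _ (Submodule.mem_span_singleton_self v)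
      have h2 := finrank_span_eq_card h1
      have h3 : Set.range ![v, w] = {v, w} := by
        ext x; constructor
        · rintro ⟨i, rfl⟩
          fin_cases i
          · left; rfl
          · right; rfl
        · rintro (rfl | rfl)
          · exact ⟨0, rfl⟩
          · exact ⟨1, rfl⟩
      rw [h3, Fintype.card_fin] at h2
      exact h2
    rw [Nat.card_eq_one_iff_unique]
    refine ⟨⟨?_⟩, ⟨⟨⟨Submodule.span F {v, w}, hind, Submodule.subset_span (by simp), ?_⟩,
      Submodule.subset_span (by simp)⟩⟩⟩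
    · rintro ⟨⟨W, hW2, hvW, -⟩, hwW⟩ ⟨⟨W', hW2', hvW', -⟩, hwW'⟩
      apply Subtype.ext
      apply Subtype.ext
      show W = W'
      have g : ∀ X : Submodule F (V F), finrank F X = 2 → v ∈ X → w ∈ X →
          Submodule.span F {v, w} = X := by
        intro X hX hv hw
        apply Submodule.eq_of_le_of_finrank_eq
        · rw [Submodule.span_le]
          rintro x (rfl | rfl)
          · exact hv
          · exact hw
        · rw [hind, hX]
      rw [← g W hW2 hvW hwW, ← g W' hW2' hvW' hwW']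
    · intro x hx y hy
      rw [Submodule.mem_span_pair] at hx hy
      obtain ⟨a, b, rfl⟩ := hx
      obtain ⟨c, d, rfl⟩ := hy
      have hwv' : Cfsg.sympForm 2 F w v = 0 := by rw [sympForm_neg_swap, hwP, neg_zero]
      simp only [sympForm_add_left, sympForm_add_right, sympForm_smul_left, sympForm_smul_right,
        sympForm_self, hwP, hwv', mul_zero, add_zero]

theorem row {q : ℕ} (hF : Fintype.card F = q) :
    Nat.card {W : Submodule F (V F) // finrank F W = 2 ∧
      ∀ u ∈ W, ∀ v ∈ W, Cfsg.sympForm 2 F u v = 0} = (q + 1) * (q ^ 2 + 1) := by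
  have hq : 1 < q := by rw [← hF]; exact Fintype.one_lt_card
  have hV : finrank F (⊤ : Submodule F (V F)) = 4 := by rw [finrank_top]; simp [V]
  have hb : finrank F (⊥ : Submodule F (V F)) = 0 := finrank_bot F (V F)
  have key := double (A := {W : Submodule F (V F) // finrank F W = 2 ∧
      ∀ u ∈ W, ∀ w ∈ W, Cfsg.sympForm 2 F u w = 0})
    (B := {w : V F // w ∈ (⊤ : Submodule F (V F)) ∧ w ∉ (⊥ : Submodule F (V F))})
    (fun W w => w.1 ∈ W.1) (k := q ^ 2 - q ^ 0) (l := q + 1) ?_ ?_
  · rw [card_diff le_top hV hb, hF] at key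
    obtain ⟨r, rfl⟩ : ∃ r, q = r + 2 := ⟨q - 2, by omega⟩
    have e1 : (r + 2) ^ 2 - (r + 2) ^ 0 = (r + 3) * (r + 1) := by
      have : (r + 2) ^ 2 = (r + 3) * (r + 1) + (r + 2) ^ 0 := by ring
      omega
    have e2 : (r + 2) ^ 4 - (r + 2) ^ 0 = ((r + 2) ^ 2 + 1) * ((r + 3) * (r + 1)) := by
      have : (r + 2) ^ 4 = ((r + 2) ^ 2 + 1) * ((r + 3) * (r + 1)) + (r + 2) ^ 0 := by ring
      omega
    rw [e1, e2] at key
    have h5 : 0 < (r + 3) * (r + 1) := by positivity
    apply Nat.eq_of_mul_eq_mul_right h5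
    rw [key]; ring
  · rintro ⟨W, hW2, hW⟩
    rw [← hF, ← card_diff bot_le hW2 hb]
    exact Nat.card_congr
      { toFun := fun w => ⟨w.1.1, w.2, w.1.2.2⟩
        invFun := fun w => ⟨⟨w.1, Submodule.mem_top, w.2.2⟩, w.2.1⟩
        left_inv := fun _ => rfl
        right_inv := fun _ => rfl }
  · rintro ⟨w, -, hw⟩
    rw [← lines_through hF (v := w) (by rwa [Submodule.mem_bot] at hw)]
    exact Nat.card_congr
      { toFun := fun W => ⟨W.1.1, W.1.2.1, W.2, W.1.2.2⟩
        invFun := fun W => ⟨⟨W.1, W.2.1, W.2.2.2⟩, W.2.2.1⟩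
        left_inv := fun _ => rfl
        right_inv := fun _ => rfl }

end Cfsg.Agent.Dk.SpL
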