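import Mathlib
import Cfsg.Agent.S0752
import Cfsg.Agent.Orth.Types
import Cfsg.Agent.Orth.Diag
import Cfsg.Agent.Orth.Arith
import Cfsg.Agent.Orth.PlusStd

/-! Tensor products of bilinear forms over finite fields. -/

set_option autoImplicit false

namespace Cfsg.Agent.Dk.TF

open Module TensorProduct QuadraticMap Matrix
open scoped Kronecker
open Orth

section tens

variable {F U W : Type*} [Field F] [AddCommGroup U] [Module F U] [AddCommGroup W] [Module F W]

theorem tmul_apply (B₁ : LinearMap.BilinForm F U) (B₂ : LinearMap.BilinForm F W) (x x' : U)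
    (y y' : W) : (B₁.tmul B₂) (x ⊗ₜ y) (x' ⊗ₜ y') = B₁ x x' * B₂ y y' := by
  show B₂ y y' * B₁ x x' = _
  ring

theorem toMatrix_tmul {ι κ : Type*} [Fintype ι] [DecidableEq ι] [Fintype κ] [DecidableEq κ]
    (B₁ : LinearMap.BilinForm F U) (B₂ : LinearMap.BilinForm F W) (b : Basis ι F U)
    (c : Basis κ F W) :
    LinearMap.BilinForm.toMatrix (b.tensorProduct c) (B₁.tmul B₂) =
      (LinearMap.BilinForm.toMatrix b B₁) ⊗ₖ (LinearMap.BilinForm.toMatrix c B₂) := by
  ext ⟨i, j⟩ ⟨i', j'⟩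
  rw [LinearMap.BilinForm.toMatrix_apply, Basis.tensorProduct_apply, Basis.tensorProduct_apply,
    tmul_apply, Matrix.kroneckerMap_apply, LinearMap.BilinForm.toMatrix_apply,
    LinearMap.BilinForm.toMatrix_apply]

theorem det_tmul {ι κ : Type*} [Fintype ι] [DecidableEq ι] [Fintype κ] [DecidableEq κ]
    (B₁ : LinearMap.BilinForm F U) (B₂ : LinearMap.BilinForm F W) (b : Basis ι F U)
    (c : Basis κ F W) :
    (LinearMap.BilinForm.toMatrix (b.tensorProduct c) (B₁.tmul B₂)).det =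
      (LinearMap.BilinForm.toMatrix b B₁).det ^ Fintype.card κ *
      (LinearMap.BilinForm.toMatrix c B₂).det ^ Fintype.card ι := by
  rw [toMatrix_tmul, Matrix.det_kronecker]

theorem nondeg_tmul [FiniteDimensional F U] [FiniteDimensional F W]
    {B₁ : LinearMap.BilinForm F U} {B₂ : LinearMap.BilinForm F W}
    (h₁ : B₁.Nondegenerate) (h₂ : B₂.Nondegenerate) : (B₁.tmul B₂).Nondegenerate := by
  refine (LinearMap.BilinForm.nondegenerate_iff_det_ne_zero
    ((finBasis F U).tensorProduct (finBasis F W))).2 ?_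
  rw [det_tmul]
  exact mul_ne_zero (pow_ne_zero _ ((LinearMap.BilinForm.nondegenerate_iff_det_ne_zero _).1 h₁))
    (pow_ne_zero _ ((LinearMap.BilinForm.nondegenerate_iff_det_ne_zero _).1 h₂))

theorem symm_tmul {B₁ : LinearMap.BilinForm F U} {B₂ : LinearMap.BilinForm F W}
    (h : ∀ x x' y y', B₁ x x' * B₂ y y' = B₁ x' x * B₂ y' y) : (B₁.tmul B₂).IsSymm := by
  rw [LinearMap.isSymm_iff_eq_flip]
  ext x y x' y'
  show B₂ y y' * B₁ x x' = B₂ y' y * B₁ x' x
  rw [mul_comm, h, mul_comm]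

theorem vanish_tmul (B₁ : LinearMap.BilinForm F U) (B₂ : LinearMap.BilinForm F W)
    {L : Submodule F U} (hL : ∀ x ∈ L, ∀ y ∈ L, B₁ x y = 0) :
    ∀ x ∈ LinearMap.range (LinearMap.rTensor W L.subtype),
      ∀ y ∈ LinearMap.range (LinearMap.rTensor W L.subtype), (B₁.tmul B₂) x y = 0 := by
  rintro _ ⟨s, rfl⟩ _ ⟨t, rfl⟩
  induction s using TensorProduct.induction_on with
  | zero => rw [map_zero, map_zero, LinearMap.zero_apply]
  | add a b ha hb => rw [map_add, map_add, LinearMap.add_apply, ha, hb, add_zero]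
  | tmul a b =>
    induction t using TensorProduct.induction_on with
    | zero => rw [map_zero, map_zero]
    | add c d hc hd => rw [map_add, map_add, hc, hd, add_zero]
    | tmul c d =>
      rw [LinearMap.rTensor_tmul, LinearMap.rTensor_tmul, tmul_apply]
      rw [show B₁ (L.subtype a) (L.subtype c) = 0 from hL _ a.2 _ c.2, zero_mul]

theorem finrank_rTensor [FiniteDimensional F U] [FiniteDimensional F W] (L : Submodule F U) :
    finrank F (LinearMap.range (LinearMap.rTensor W L.subtype)) = finrank F L * finrank F W := by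
  rw [LinearMap.finrank_range_of_inj
    (Module.Flat.rTensor_preserves_injective_linearMap _ L.injective_subtype),
    finrank_tensorProduct]

/-- a nondegenerate alternating form has a Lagrangian -/
theorem exists_lagrangian [FiniteDimensional F U] {B : LinearMap.BilinForm F U}
    (hB : B.Nondegenerate) (hA : B.IsAlt) {k : ℕ} (hU : finrank F U = 2 * k) :
    ∃ L : Submodule F U, finrank F L = k ∧ ∀ x ∈ L, ∀ y ∈ L, B x y = 0 := by
  obtain ⟨m, j, b, h1, h2, h3, h4⟩ := Cfsg.Agent.S0752.result B hA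
  have hj : j = 0 := by
    by_contra hj
    have h5 := hB.1 (b (Sum.inr ⟨0, Nat.pos_of_ne_zero hj⟩)) (h4 _)
    exact b.ne_zero _ h5
  subst hj
  have hm : m = k := by
    have h5 := finrank_eq_card_basis b
    rw [hU] at h5
    simp at h5
    omega
  subst hm
  refine ⟨Submodule.span F (Set.range fun i : Fin m => b (Sum.inl (Sum.inl i))), ?_, ?_⟩
  · rw [finrank_span_eq_card, Fintype.card_fin]
    exact b.linearIndependent.comp _ (Sum.inl_injective.comp Sum.inl_injective)
  · intro x hx y hy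
    induction hx using Submodule.span_induction with
    | mem x hx =>
      obtain ⟨i, rfl⟩ := hx
      induction hy using Submodule.span_induction with
      | mem y hy => obtain ⟨i', rfl⟩ := hy; exact h2 _ _
      | zero => rw [map_zero]
      | add _ _ _ _ ha hb => rw [map_add, ha, hb, add_zero]
      | smul a _ _ ha => rw [map_smul, ha, smul_zero]
    | zero => rw [map_zero, LinearMap.zero_apply]
    | add _ _ _ _ ha hb => rw [map_add, LinearMap.add_apply, ha, hb, add_zero]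
    | smul a _ _ ha => rw [map_smul, LinearMap.smul_apply, ha, smul_zero]

end tens

section typ

variable {F V : Type*} [Field F] [AddCommGroup V] [Module F V]

theorem polar_toQ {B : LinearMap.BilinForm F V} (hS : B.IsSymm) (x y : V) :
    polar B.toQuadraticMap x y = 2 * B x y := by
  have := hS.eq x y
  simp only [QuadraticMap.polar, LinearMap.BilinMap.toQuadraticMap_apply, map_add, LinearMap.add_apply]
  have h1 : B y x = B x y := by rw [← this]
  rw [h1]; ring

theorem nondeg_toQ (h2 : (2 : F) ≠ 0) {B : LinearMap.BilinForm F V} (hS : B.IsSymm)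
    (hB : B.Nondegenerate) : (polarBilin B.toQuadraticMap).Nondegenerate := by
  constructor
  · intro x hx
    apply hB.1
    intro y
    have h3 := hx y
    rw [pbil, polar_toQ hS] at h3
    exact (mul_eq_zero.1 h3).resolve_left h2
  · intro x hx
    apply hB.2
    intro y
    have h3 := hx y
    rw [pbil, polar_toQ hS] at h3
    exact (mul_eq_zero.1 h3).resolve_left h2

theorem det_gram {ι : Type*} [Fintype ι] [DecidableEq ι] {B : LinearMap.BilinForm F V}
    (hS : B.IsSymm) (b : Basis ι F V) :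
    (gram B.toQuadraticMap b).det = 2 ^ Fintype.card ι * (LinearMap.BilinForm.toMatrix b B).det := by
  have h1 : gram B.toQuadraticMap b = (2 : F) • LinearMap.BilinForm.toMatrix b B := by
    ext i j
    rw [Matrix.smul_apply, LinearMap.BilinForm.toMatrix_apply, smul_eq_mul]
    exact polar_toQ hS _ _
  rw [h1, Matrix.det_smul]

/-- plus type via the discriminant -/
theorem plus_iff [Finite F] [FiniteDimensional F V] (h2 : (2 : F) ≠ 0) {B : LinearMap.BilinForm F V}
    (hS : B.IsSymm) (hB : B.Nondegenerate) {m : ℕ} (hm : 1 ≤ m) (hV : finrank F V = 2 * m)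
    {ι : Type*} [Fintype ι] [DecidableEq ι] (b : Basis ι F V) :
    (∃ X : Submodule F V, finrank F X = m ∧ ∀ x ∈ X, ∀ y ∈ X, B x y = 0) ↔
      IsSquare ((-1) ^ m * (LinearMap.BilinForm.toMatrix b B).det) := by
  have hQ := nondeg_toQ h2 hS hB
  have hc : Fintype.card ι = 2 * m := by rw [← hV, finrank_eq_card_basis b]
  have hg := det_gram hS b
  rw [hc] at hg
  constructor
  · rintro ⟨X, hX, hX0⟩
    have hTS : TS B.toQuadraticMap X := by
      intro x hx
      rw [LinearMap.BilinMap.toQuadraticMap_apply]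
      exact hX0 x hx x hx
    obtain ⟨g, hgQ⟩ := exists_isom_plus hm hV hQ hTS hX
    obtain ⟨s, hs, hrel⟩ := gram_det_rel B.toQuadraticMap ((Pi.basisFun F (Fin m ⊕ Fin m)).map g.symm) b
    have h3 : gram B.toQuadraticMap ((Pi.basisFun F (Fin m ⊕ Fin m)).map g.symm) =
        gram (qfPlus m F) (Pi.basisFun F (Fin m ⊕ Fin m)) := by
      ext i j
      show polar B.toQuadraticMap _ _ = polar (qfPlus m F) _ _
      rw [Basis.map_apply, Basis.map_apply]
      simp only [QuadraticMap.polar]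
      rw [← map_add, ← hgQ, ← hgQ, ← hgQ, LinearEquiv.apply_symm_apply, LinearEquiv.apply_symm_apply,
        LinearEquiv.apply_symm_apply]
    rw [h3, det_gram_qfPlus, hg] at hrel
    refine ⟨s / 2 ^ m, ?_⟩
    have h5 : ((-1 : F) ^ m) * (-1) ^ m = 1 := by rw [← mul_pow]; norm_num
    field_simp
    rw [← pow_mul, mul_comm m 2]
    calc (-1 : F) ^ m * (LinearMap.BilinForm.toMatrix b B).det * 2 ^ (2 * m) =
        (-1 : F) ^ m * (2 ^ (2 * m) * (LinearMap.BilinForm.toMatrix b B).det) := by ring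
      _ = s ^ 2 * (((-1 : F) ^ m) * (-1) ^ m) := by rw [hrel]; ring
      _ = s ^ 2 := by rw [h5, mul_one]
  · intro hsq
    obtain ⟨g, hgQ⟩ := exists_isom_of_disc h2 hQ (qfPlus_nondegenerate m F)
      (by rw [hV, finrank_V]) b (Pi.basisFun F (Fin m ⊕ Fin m)) (by
        rw [det_gram_qfPlus, hg]
        obtain ⟨r, hr⟩ := hsq
        refine ⟨2 ^ m * r, ?_⟩
        calc 2 ^ (2 * m) * (LinearMap.BilinForm.toMatrix b B).det * (-1) ^ m =
            2 ^ (2 * m) * ((-1) ^ m * (LinearMap.BilinForm.toMatrix b B).det) := by ring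
          _ = 2 ^ m * r * (2 ^ m * r) := by rw [hr]; ring)
    refine ⟨(U0 m F).comap (g : V →ₗ[F] (Fin m ⊕ Fin m → F)), ?_, ?_⟩
    · have h3 : (U0 m F).comap (g : V →ₗ[F] (Fin m ⊕ Fin m → F)) =
          (U0 m F).map (g.symm : (Fin m ⊕ Fin m → F) →ₗ[F] V) :=
        (Submodule.map_equiv_eq_comap_symm g.symm (U0 m F)).symm
      rw [h3, LinearEquiv.finrank_map_eq, finrank_U0]
    · intro x hx y hy
      have h3 : polar B.toQuadraticMap x y = 0 := by
        simp only [QuadraticMap.polar]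
        rw [← hgQ, ← hgQ, ← hgQ, map_add]
        have h4 := (TS_U0 m F).polar (x := g x) (y := g y) hx hy
        simp only [QuadraticMap.polar] at h4
        exact h4
      rw [polar_toQ hS] at h3
      exact (mul_eq_zero.1 h3).resolve_left h2

end typ

section rows

variable {F U W : Type*} [Field F] [AddCommGroup U] [Module F U] [FiniteDimensional F U]
  [AddCommGroup W] [Module F W] [FiniteDimensional F W]

theorem row833 (B₁ : LinearMap.BilinForm F U) (B₂ : LinearMap.BilinForm F W)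
    (h₁ : B₁.Nondegenerate) (h₂ : B₂.Nondegenerate) (hA₁ : B₁.IsAlt) (hA₂ : B₂.IsAlt) (k l : ℕ)
    (hU : finrank F U = 2 * k) (hW : finrank F W = 2 * l) :
    (B₁.tmul B₂).IsSymm ∧ (B₁.tmul B₂).Nondegenerate ∧
      (∃ X : Submodule F (TensorProduct F U W), finrank F X = 2 * k * l ∧
        ∀ x ∈ X, ∀ y ∈ X, (B₁.tmul B₂) x y = 0) := by
  refine ⟨symm_tmul ?_, nondeg_tmul h₁ h₂, ?_⟩
  · intro x x' y y'
    rw [← hA₁.neg_eq x x', ← hA₂.neg_eq y y', neg_mul_neg]
  · obtain ⟨L, hL, hL0⟩ := exists_lagrangian h₁ hA₁ hU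
    refine ⟨LinearMap.range (LinearMap.rTensor W L.subtype), ?_, vanish_tmul B₁ B₂ hL0⟩
    rw [finrank_rTensor, hL, hW]; ring

variable [Finite F]

theorem row834 (h2 : (2 : F) ≠ 0) (B₁ : LinearMap.BilinForm F U) (B₂ : LinearMap.BilinForm F W)
    (h₁ : B₁.Nondegenerate) (h₂ : B₂.Nondegenerate) (hS₁ : B₁.IsSymm) (hS₂ : B₂.IsSymm) (k l : ℕ)
    (hk : 1 ≤ k) (hl : 1 ≤ l) (hU : finrank F U = 2 * k) (hW : finrank F W = 2 * l) :
    ∃ X : Submodule F (TensorProduct F U W), finrank F X = 2 * k * l ∧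
      ∀ x ∈ X, ∀ y ∈ X, (B₁.tmul B₂) x y = 0 := by
  have hS : (B₁.tmul B₂).IsSymm := symm_tmul (by
    intro x x' y y'
    have e1 : B₁ x x' = B₁ x' x := hS₁.eq x x'
    have e2 : B₂ y y' = B₂ y' y := hS₂.eq y y'
    rw [e1, e2])
  have hV : finrank F (TensorProduct F U W) = 2 * (2 * k * l) := by
    rw [finrank_tensorProduct, hU, hW]; ring
  have hm : 1 ≤ 2 * k * l := Nat.mul_pos (by omega) (by omega)
  refine (plus_iff (B := B₁.tmul B₂) h2 ⟨fun x y => hS.eq x y⟩ (nondeg_tmul h₁ h₂) hm hV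
    ((finBasisOfFinrankEq F U hU).tensorProduct (finBasisOfFinrankEq F W hW))).2 ?_
  rw [det_tmul, Fintype.card_fin, Fintype.card_fin]
  refine ⟨(-1) ^ (k * l) * ((LinearMap.BilinForm.toMatrix (finBasisOfFinrankEq F U hU) B₁).det ^ l *
    (LinearMap.BilinForm.toMatrix (finBasisOfFinrankEq F W hW) B₂).det ^ k), ?_⟩
  rw [mul_assoc 2 k l]
  ring

theorem row835 (h2 : (2 : F) ≠ 0) (B₁ : LinearMap.BilinForm F U) (B₂ : LinearMap.BilinForm F W)
    (h₁ : B₁.Nondegenerate) (h₂ : B₂.Nondegenerate) (hS₁ : B₁.IsSymm) (hS₂ : B₂.IsSymm) (k l : ℕ)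
    (hk : 1 ≤ k) (hU : finrank F U = 2 * k) (hW : finrank F W = 2 * l + 1)
    (hm₁ : ¬ (∃ X : Submodule F U, finrank F X = k ∧ ∀ x ∈ X, ∀ y ∈ X, B₁ x y = 0)) :
    ¬ (∃ X : Submodule F (TensorProduct F U W), finrank F X = k * (2 * l + 1) ∧
      ∀ x ∈ X, ∀ y ∈ X, (B₁.tmul B₂) x y = 0) := by
  intro hX
  apply hm₁
  have hS : (B₁.tmul B₂).IsSymm := symm_tmul (by
    intro x x' y y'
    have e1 : B₁ x x' = B₁ x' x := hS₁.eq x x'
    have e2 : B₂ y y' = B₂ y' y := hS₂.eq y y'
    rw [e1, e2])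
  have hV : finrank F (TensorProduct F U W) = 2 * (k * (2 * l + 1)) := by
    rw [finrank_tensorProduct, hU, hW]; ring
  have hm : 1 ≤ k * (2 * l + 1) := Nat.mul_pos (by omega) (by omega)
  obtain ⟨r, hr⟩ := (plus_iff (B := B₁.tmul B₂) h2 ⟨fun x y => hS.eq x y⟩ (nondeg_tmul h₁ h₂) hm hV
    ((finBasisOfFinrankEq F U hU).tensorProduct (finBasisOfFinrankEq F W hW))).1 hX
  rw [det_tmul, Fintype.card_fin, Fintype.card_fin] at hr
  refine (plus_iff h2 hS₁ h₁ hk hU (finBasisOfFinrankEq F U hU)).2 ?_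
  have d1 := (LinearMap.BilinForm.nondegenerate_iff_det_ne_zero (finBasisOfFinrankEq F U hU)).1 h₁
  have d2 := (LinearMap.BilinForm.nondegenerate_iff_det_ne_zero (finBasisOfFinrankEq F W hW)).1 h₂
  set D₁ := (LinearMap.BilinForm.toMatrix (finBasisOfFinrankEq F U hU) B₁).det with hD₁
  set D₂ := (LinearMap.BilinForm.toMatrix (finBasisOfFinrankEq F W hW) B₂).det with hD₂
  set a : F := (-1) ^ k * D₁ with ha
  have ha0 : a ≠ 0 := mul_ne_zero (pow_ne_zero _ (neg_ne_zero.2 one_ne_zero)) d1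
  have hc0 : a ^ l * D₂ ^ k ≠ 0 := mul_ne_zero (pow_ne_zero _ ha0) (pow_ne_zero _ d2)
  have h3 : a * (a ^ l * D₂ ^ k) ^ 2 = r * r := by
    rw [← hr]
    calc a * (a ^ l * D₂ ^ k) ^ 2 = a ^ (2 * l + 1) * D₂ ^ (2 * k) := by ring
      _ = (-1) ^ (k * (2 * l + 1)) * (D₁ ^ (2 * l + 1) * D₂ ^ (2 * k)) := by
        rw [ha, mul_pow, ← pow_mul, mul_assoc]
  refine ⟨r / (a ^ l * D₂ ^ k), ?_⟩
  rw [div_mul_div_comm, ← h3, ← pow_two, mul_div_assoc, div_self (pow_ne_zero 2 hc0), mul_one]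

end rows

end Cfsg.Agent.Dk.TF
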